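import Mathlib

/-!
# Certified enumeration of a finitely presented group

A reflective checker: a certificate `Cert` lists `n` words (one for each element of the expected
group), the right-multiplication table of the generators on the indices `0, …, n-1`, a list of
positive relator words and a list of deduction steps (relator scans with exactly one unknown edge).
If `check c = true` then in every group `P` generated by elements `g 0, …, g (ngens-1)` satisfying
the relators, every element is the value of one of the `n` words; in particular `P` is finite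
of order at most `n` (`card_le`), and a surjection from `P` onto a group of order at least `n`
is bijective (`bijective_of_check`).
-/

set_option autoImplicit false

namespace Cfsg.Agent.Lib.Helper20.Enum

variable {P : Type*} [Group P]

/-- Right action of a word (a list of generator indices) on an element. -/
def act (g : ℕ → P) (p : P) (L : List ℕ) : P := L.foldl (fun acc i => acc * g i) p

/-- Value of a word. -/
def ev (g : ℕ → P) (L : List ℕ) : P := act g 1 L

theorem act_nil (g : ℕ → P) (p : P) : act g p [] = p := rfl

theorem act_cons (g : ℕ → P) (p : P) (i : ℕ) (L : List ℕ) :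
    act g p (i :: L) = act g (p * g i) L := rfl

theorem act_append (g : ℕ → P) (p : P) (L₁ L₂ : List ℕ) :
    act g p (L₁ ++ L₂) = act g (act g p L₁) L₂ := List.foldl_append ..

theorem act_eq_mul (g : ℕ → P) (p : P) (L : List ℕ) : act g p L = p * ev g L := by
  induction L generalizing p with
  | nil => simp [ev, act]
  | cons i L ih =>
    show act g (p * g i) L = p * act g (1 * g i) L
    rw [ih, one_mul, ih (g i), mul_assoc]

theorem act_cancel (g : ℕ → P) {p q : P} (L : List ℕ) (h : act g p L = act g q L) : p = q := by
  rw [act_eq_mul, act_eq_mul] at h; exact mul_right_cancel h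

theorem map_act {Q : Type*} [Group Q] (f : P →* Q) (g : ℕ → P) (p : P) (L : List ℕ) :
    f (act g p L) = act (fun i => f (g i)) (f p) L := by
  induction L generalizing p with
  | nil => rfl
  | cons i L ih => rw [act_cons, ih, map_mul, act_cons]

theorem map_ev {Q : Type*} [Group Q] (f : P →* Q) (g : ℕ → P) (L : List ℕ) :
    f (ev g L) = ev (fun i => f (g i)) L := by
  rw [ev, map_act, map_one]; rfl

/-- An enumeration certificate. -/
structure Cert where
  ngens : ℕ
  words : List (List ℕ)
  tab : List (List ℕ)
  rels : List (List ℕ)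
  steps : List (ℕ × List ℕ × ℕ × List ℕ)

def Cert.wordAt (c : Cert) (j : ℕ) : List ℕ := c.words.getD j []

def Cert.tabAt (c : Cert) (i j : ℕ) : ℕ := (c.tab.getD i []).getD j 0

/-- The edge `e = (j, i)` of the table is valid in `P`. -/
def Good (g : ℕ → P) (c : Cert) (e : ℕ × ℕ) : Prop :=
  ev g (c.wordAt e.1) * g e.2 = ev g (c.wordAt (c.tabAt e.2 e.1))

def walk (c : Cert) (known : List (ℕ × ℕ)) : ℕ → List ℕ → Option ℕ
  | j, [] => some j
  | j, i :: L => if (j, i) ∈ known then walk c known (c.tabAt i j) L else none

theorem walk_sound (g : ℕ → P) (c : Cert) (known : List (ℕ × ℕ))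
    (hk : ∀ e ∈ known, Good g c e) :
    ∀ (L : List ℕ) (j j' : ℕ), walk c known j L = some j' →
      act g (ev g (c.wordAt j)) L = ev g (c.wordAt j') := by
  intro L
  induction L with
  | nil =>
    intro j j' h
    simp only [walk, Option.some.injEq] at h
    rw [act_nil, h]
  | cons i L ih =>
    intro j j' h
    simp only [walk] at h
    split_ifs at h with hmem
    have h1 : ev g (c.wordAt j) * g i = ev g (c.wordAt (c.tabAt i j)) := hk _ hmem
    rw [act_cons, h1]
    exact ih _ _ h

def stepOk (c : Cert) (known : List (ℕ × ℕ)) (s : ℕ × List ℕ × ℕ × List ℕ) : Option (ℕ × ℕ) :=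
  if (s.2.1 ++ s.2.2.1 :: s.2.2.2) ∈ c.rels then
    match walk c known s.1 s.2.1 with
    | some u =>
      if walk c known (c.tabAt s.2.2.1 u) s.2.2.2 = some s.1 then some (u, s.2.2.1) else none
    | none => none
  else none

theorem stepOk_sound (g : ℕ → P) (c : Cert) (known : List (ℕ × ℕ))
    (hrel : ∀ R ∈ c.rels, ev g R = 1) (hk : ∀ e ∈ known, Good g c e)
    (s : ℕ × List ℕ × ℕ × List ℕ) (e : ℕ × ℕ) (h : stepOk c known s = some e) : Good g c e := by
  obtain ⟨j0, R1, i, R2⟩ := s
  simp only [stepOk] at h
  split_ifs at h with hR
  cases hw : walk c known j0 R1 with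
  | none => rw [hw] at h; simp at h
  | some u =>
    rw [hw] at h
    simp only at h
    split_ifs at h with hw2
    simp only [Option.some.injEq] at h
    subst h
    have h1 := walk_sound g c known hk R1 j0 u hw
    have h2 := walk_sound g c known hk R2 _ j0 hw2
    have h3 : act g (ev g (c.wordAt j0)) (R1 ++ i :: R2) = ev g (c.wordAt j0) := by
      rw [act_eq_mul, hrel _ hR, mul_one]
    rw [act_append, act_cons, h1] at h3
    show ev g (c.wordAt u) * g i = ev g (c.wordAt (c.tabAt i u))
    exact act_cancel g R2 (h3.trans h2.symm)

def run (c : Cert) : List (ℕ × ℕ) → List (ℕ × List ℕ × ℕ × List ℕ) → Option (List (ℕ × ℕ))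
  | known, [] => some known
  | known, s :: rest =>
    match stepOk c known s with
    | some e => run c (e :: known) rest
    | none => none

theorem run_sound (g : ℕ → P) (c : Cert) (hrel : ∀ R ∈ c.rels, ev g R = 1) :
    ∀ (steps : List (ℕ × List ℕ × ℕ × List ℕ)) (known known' : List (ℕ × ℕ)),
      (∀ e ∈ known, Good g c e) → run c known steps = some known' → ∀ e ∈ known', Good g c e := by
  intro steps
  induction steps with
  | nil =>
    intro known known' hk h
    simp only [run, Option.some.injEq] at h
    subst h; exact hk
  | cons s rest ih =>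
    intro known known' hk h
    simp only [run] at h
    cases hs : stepOk c known s with
    | none => rw [hs] at h; simp at h
    | some e =>
      rw [hs] at h
      simp only at h
      apply ih (e :: known) known' _ h
      intro e' he'
      rcases List.mem_cons.mp he' with rfl | he'
      · exact stepOk_sound g c known hrel hk s _ hs
      · exact hk _ he'

/-- The edges `(j, i)` for which the word of the target is the word of `j` followed by `i`. -/
def treeEdges (c : Cert) : List (ℕ × ℕ) :=
  (List.range c.words.length).flatMap (fun j =>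
    (List.range c.ngens).filterMap (fun i =>
      if c.wordAt (c.tabAt i j) = c.wordAt j ++ [i] then some (j, i) else none))

theorem treeEdges_good (g : ℕ → P) (c : Cert) : ∀ e ∈ treeEdges c, Good g c e := by
  intro e he
  simp only [treeEdges, List.mem_flatMap, List.mem_filterMap, List.mem_range] at he
  obtain ⟨j, hj, i, hi, hsome⟩ := he
  split_ifs at hsome with hw
  simp only [Option.some.injEq] at hsome
  subst hsome
  show ev g (c.wordAt j) * g i = ev g (c.wordAt (c.tabAt i j))
  rw [hw]
  show act g 1 (c.wordAt j) * g i = act g 1 (c.wordAt j ++ [i])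
  rw [act_append]
  rfl

/-- The checker. -/
def check (c : Cert) : Bool :=
  match run c (treeEdges c) c.steps with
  | some known =>
    ((List.range c.words.length).all (fun j => (List.range c.ngens).all (fun i =>
      decide ((j, i) ∈ known) && decide (c.tabAt i j < c.words.length)))
      && decide (c.wordAt 0 = [])) && decide (0 < c.words.length)
  | none => false

theorem check_sound (g : ℕ → P) (c : Cert) (h : check c = true)
    (hrel : ∀ R ∈ c.rels, ev g R = 1) :
    (∀ j < c.words.length, ∀ i < c.ngens, Good g c (j, i) ∧ c.tabAt i j < c.words.length) ∧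
      c.wordAt 0 = [] ∧ 0 < c.words.length := by
  unfold check at h
  cases hr : run c (treeEdges c) c.steps with
  | none => rw [hr] at h; simp at h
  | some known =>
    rw [hr] at h
    simp only [Bool.and_eq_true, List.all_eq_true, List.mem_range, decide_eq_true_eq] at h
    obtain ⟨⟨h1, h2⟩, h3⟩ := h
    refine ⟨fun j hj i hi => ?_, h2, h3⟩
    obtain ⟨hm, hlt⟩ := h1 j hj i hi
    exact ⟨run_sound g c hrel c.steps _ _ (treeEdges_good g c) hr _ hm, hlt⟩

/-- Main theorem: every element of `P` is the value of one of the words of the certificate. -/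
theorem exists_word (g : ℕ → P) (c : Cert) (h : check c = true)
    (hrel : ∀ R ∈ c.rels, ev g R = 1) (hg1 : ∀ i, c.ngens ≤ i → g i = 1)
    (hgen : Subgroup.closure (Set.range g) = ⊤) (p : P) :
    ∃ j < c.words.length, p = ev g (c.wordAt j) := by
  classical
  obtain ⟨hE, h0, hpos⟩ := check_sound g c h hrel
  have hmul : ∀ (i : ℕ) (j : ℕ), j < c.words.length →
      ∃ j' < c.words.length, ev g (c.wordAt j) * g i = ev g (c.wordAt j') := by
    intro i j hj
    by_cases hi : i < c.ngens
    · obtain ⟨hgood, hlt⟩ := hE j hj i hi
      exact ⟨_, hlt, hgood⟩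
    · rw [hg1 i (not_lt.mp hi), mul_one]; exact ⟨j, hj, rfl⟩
  have hinv : ∀ (i : ℕ) (j : ℕ), j < c.words.length →
      ∃ j' < c.words.length, ev g (c.wordAt j) * (g i)⁻¹ = ev g (c.wordAt j') := by
    intro i j hj
    obtain ⟨S, hS⟩ : ∃ S : Finset P, S = (Finset.range c.words.length).image
        (fun j => ev g (c.wordAt j)) := ⟨_, rfl⟩
    have hmaps : Set.MapsTo (fun q : P => q * g i) S S := by
      intro q hq
      rw [hS] at hq ⊢
      obtain ⟨j, hj, rfl⟩ := Finset.mem_image.mp hq
      obtain ⟨j', hj', e⟩ := hmul i j (Finset.mem_range.mp hj)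
      exact Finset.mem_image.mpr ⟨j', Finset.mem_range.mpr hj', e.symm⟩
    have hinj : Set.InjOn (fun q : P => q * g i) S := fun q _ q' _ hqq => mul_right_cancel hqq
    have hsurj := Finset.surjOn_of_injOn_of_card_le (fun q : P => q * g i) hmaps hinj le_rfl
    have hp : ev g (c.wordAt j) ∈ S := by
      rw [hS]; exact Finset.mem_image.mpr ⟨j, Finset.mem_range.mpr hj, rfl⟩
    obtain ⟨q, hq, e⟩ := hsurj hp
    rw [Finset.mem_coe, hS] at hq
    obtain ⟨j', hj', rfl⟩ := Finset.mem_image.mp hq
    refine ⟨j', Finset.mem_range.mp hj', ?_⟩
    have e' : ev g (c.wordAt j') * g i = ev g (c.wordAt j) := e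
    rw [← e', mul_inv_cancel_right]
  have hp : p ∈ Subgroup.closure (Set.range g) := by rw [hgen]; trivial
  induction hp using Subgroup.closure_induction_right with
  | one => exact ⟨0, hpos, by rw [h0]; rfl⟩
  | mul_right x hx y hy ih =>
    obtain ⟨j, hj, rfl⟩ := ih
    obtain ⟨i, rfl⟩ := hy
    exact hmul i j hj
  | mul_inv_cancel x hx y hy ih =>
    obtain ⟨j, hj, rfl⟩ := ih
    obtain ⟨i, rfl⟩ := hy
    exact hinv i j hj

theorem card_le (g : ℕ → P) (c : Cert) (h : check c = true)
    (hrel : ∀ R ∈ c.rels, ev g R = 1) (hg1 : ∀ i, c.ngens ≤ i → g i = 1)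
    (hgen : Subgroup.closure (Set.range g) = ⊤) : Finite P ∧ Nat.card P ≤ c.words.length := by
  have hs : Function.Surjective (fun j : Fin c.words.length => ev g (c.wordAt j)) := by
    intro p
    obtain ⟨j, hj, e⟩ := exists_word g c h hrel hg1 hgen p
    exact ⟨⟨j, hj⟩, e.symm⟩
  have hfin : Finite P := Finite.of_surjective _ hs
  refine ⟨hfin, ?_⟩
  have := Nat.card_le_card_of_surjective _ hs
  simpa using this

/-- A surjection from the presented group onto a finite group with at least as many elements as
the certificate has words is a bijection. -/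
theorem bijective_of_check {Q : Type*} [Group Q] [Finite Q] (g : ℕ → P) (c : Cert)
    (h : check c = true) (hrel : ∀ R ∈ c.rels, ev g R = 1) (hg1 : ∀ i, c.ngens ≤ i → g i = 1)
    (hgen : Subgroup.closure (Set.range g) = ⊤) (f : P →* Q)
    (hcard : c.words.length ≤ Nat.card Q) (hsurj : Function.Surjective f) :
    Function.Bijective f := by
  obtain ⟨hfin, hle⟩ := card_le g c h hrel hg1 hgen
  exact hsurj.bijective_of_nat_card_le (hle.trans hcard)

end Cfsg.Agent.Lib.Helper20.Enum
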