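import Mathlib
import Cfsg.Prelude.Def_Solvable

/-!
# Semidirect products with a fixed-point-free action are Frobenius groups

If `H` acts on `N` by automorphisms such that no non-identity element of `H` fixes a non-identity
element of `N`, then the copy of `H` inside `N ⋊ H` is a Frobenius complement.
-/

set_option autoImplicit false

namespace Cfsg.Agent.Lib.Helper20

open scoped Pointwise

theorem mem_range_inr_iff {N H : Type*} [Group N] [Group H] (φ : H →* MulAut N)
    (x : N ⋊[φ] H) : x ∈ (SemidirectProduct.inr : H →* N ⋊[φ] H).range ↔ x.left = 1 := by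
  constructor
  · rintro ⟨h, rfl⟩
    exact SemidirectProduct.left_inr h
  · intro hx
    refine ⟨x.right, ?_⟩
    ext
    · rw [SemidirectProduct.left_inr, hx]
    · rw [SemidirectProduct.right_inr]

theorem isFrobeniusComplement_range_inr {N H : Type*} [Group N] [Group H] (φ : H →* MulAut N)
    [Nontrivial N] [Nontrivial H]
    (hfree : ∀ h : H, h ≠ 1 → ∀ n : N, φ h n = n → n = 1) :
    Cfsg.IsFrobeniusComplement (SemidirectProduct.inr : H →* N ⋊[φ] H).range := by
  refine ⟨?_, ?_, ?_⟩
  · intro hbot
    obtain ⟨h, hh⟩ := exists_ne (1 : H)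
    have h1 : (SemidirectProduct.inr h : N ⋊[φ] H) ∈ (SemidirectProduct.inr : H →* N ⋊[φ] H).range :=
      ⟨h, rfl⟩
    rw [hbot, Subgroup.mem_bot] at h1
    have h2 := congrArg SemidirectProduct.right h1
    rw [SemidirectProduct.right_inr, SemidirectProduct.one_right] at h2
    exact hh h2
  · intro htop
    obtain ⟨n, hn⟩ := exists_ne (1 : N)
    have h1 : (SemidirectProduct.inl n : N ⋊[φ] H) ∈ (SemidirectProduct.inr : H →* N ⋊[φ] H).range := by
      rw [htop]; trivial
    rw [mem_range_inr_iff, SemidirectProduct.left_inl] at h1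
    exact hn h1
  · intro g hg
    rw [mem_range_inr_iff] at hg
    rw [eq_bot_iff]
    intro x hx
    rw [Subgroup.mem_inf] at hx
    obtain ⟨hx1, hx2⟩ := hx
    rw [Subgroup.mem_pointwise_smul_iff_inv_smul_mem] at hx2
    rw [mem_range_inr_iff] at hx1 hx2
    rw [Subgroup.mem_bot]
    -- x = ⟨1, a⟩ ; (g⁻¹ x g).left = 1
    have h2 : ((MulAut.conj g)⁻¹ • x : N ⋊[φ] H) = g⁻¹ * x * g := by
      rw [MulAut.smul_def, ← map_inv, MulAut.conj_apply, inv_inv]
    rw [h2] at hx2
    simp only [SemidirectProduct.mul_left, SemidirectProduct.inv_left, SemidirectProduct.mul_right,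
      SemidirectProduct.inv_right, hx1, map_one] at hx2
    -- φ g.right⁻¹ g.left⁻¹ * φ (g.right⁻¹ * x.right) g.left = 1
    have h3 : φ x.right g.left = g.left := by
      have h4 := congrArg (φ g.right) hx2
      simp only [map_mul, map_one, map_inv, MulAut.mul_apply, MulAut.apply_inv_self] at h4
      rw [mul_one] at h4
      have h5 := eq_of_inv_mul_eq_one h4
      exact h5.symm
    by_contra hx0
    have hxr : x.right ≠ 1 := by
      intro hr
      apply hx0
      ext
      · rw [hx1, SemidirectProduct.one_left]
      · rw [hr, SemidirectProduct.one_right]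
    exact hg (hfree _ hxr _ h3)

end Cfsg.Agent.Lib.Helper20
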