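import Cfsg.Agent.Lib.Helper20.J1Data

/-!
# More data for the Janko group

The first generator permutes the eight commuting matrices of the table `TQ`.
-/

set_option autoImplicit false

namespace Cfsg.Agent.Lib.Helper20.J1D2

open Cfsg.Agent.Lib.Helper20.J1D

/-- Packed table: the action of the first generator on the eight commuting matrices. -/
def Tpi : ℕ := 0x7f2360

/-- The action of the first generator on the eight commuting matrices. -/
def pi7 (i : Fin 8) : Fin 8 := Fin.ofNat 8 ((Tpi >>> (3 * i.val)) &&& 7)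

theorem hpi : ∀ i : Fin 8, ∀ r c : Fin 7,
    dot TX 0 TQ i r c % 11 = dot TQ (pi7 i) TX 0 r c % 11 := by
  decide +kernel

theorem hpiv : pi7 0 = 0 ∧ pi7 1 = 4 ∧ pi7 4 = 2 ∧ pi7 2 = 5 ∧ pi7 5 = 6 ∧ pi7 6 = 7 ∧
    pi7 7 = 3 ∧ pi7 3 = 1 := by
  decide +kernel

theorem hxor : ∀ i j : Fin 8, xor8 i j = xor8 j i := by decide +kernel

theorem hxor0 : ∀ i : Fin 8, xor8 0 i = i := by decide +kernel

theorem hxorv : xor8 1 4 = 5 ∧ xor8 4 2 = 6 ∧ xor8 2 5 = 7 ∧ xor8 5 6 = 3 ∧ xor8 6 7 = 1 ∧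
    xor8 7 3 = 4 ∧ xor8 3 1 = 2 := by
  decide +kernel

end Cfsg.Agent.Lib.Helper20.J1D2
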