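import Mathlib
import Cfsg.Agent.Lib.Helper20.Enum

/-!
# A computational model of 2×2 matrices over `ZMod p`

Quadruples of natural numbers with multiplication reduced modulo `p`; used to evaluate words in
`SL(2, p)` inside the kernel quickly.
-/

set_option autoImplicit false

namespace Cfsg.Agent.Lib.Helper20.Mat2

open Cfsg.Agent.Lib.Helper20.Enum

abbrev T4 := ℕ × ℕ × ℕ × ℕ

def mmul (p : ℕ) (a b : T4) : T4 :=
  ((a.1 * b.1 + a.2.1 * b.2.2.1) % p, (a.1 * b.2.1 + a.2.1 * b.2.2.2) % p,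
   (a.2.2.1 * b.1 + a.2.2.2 * b.2.2.1) % p, (a.2.2.1 * b.2.1 + a.2.2.2 * b.2.2.2) % p)

def toM (p : ℕ) (a : T4) : Matrix (Fin 2) (Fin 2) (ZMod p) :=
  !![(a.1 : ZMod p), (a.2.1 : ZMod p); (a.2.2.1 : ZMod p), (a.2.2.2 : ZMod p)]

theorem toM_mmul (p : ℕ) (a b : T4) : toM p (mmul p a b) = toM p a * toM p b := by
  simp only [toM, mmul, Matrix.mul_fin_two, ZMod.natCast_mod, Nat.cast_add, Nat.cast_mul]

theorem toM_one (p : ℕ) : toM p (1, 0, 0, 1) = 1 := by
  simp only [toM, Nat.cast_one, Nat.cast_zero, Matrix.one_fin_two]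

def evN (p : ℕ) (g : ℕ → T4) (L : List ℕ) : T4 :=
  L.foldl (fun acc i => mmul p acc (g i)) (1, 0, 0, 1)

def red (p : ℕ) (a : T4) : T4 := (a.1 % p, a.2.1 % p, a.2.2.1 % p, a.2.2.2 % p)

def key (p : ℕ) (M : Matrix (Fin 2) (Fin 2) (ZMod p)) : T4 :=
  ((M 0 0).val, (M 0 1).val, (M 1 0).val, (M 1 1).val)

theorem key_toM (p : ℕ) [NeZero p] (a : T4) : key p (toM p a) = red p a := by
  simp [key, toM, red, ZMod.val_natCast]

theorem act_val (p : ℕ) (gA : ℕ → Matrix.SpecialLinearGroup (Fin 2) (ZMod p)) (gN : ℕ → T4)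
    (h : ∀ i, (gA i).val = toM p (gN i)) (L : List ℕ) :
    ∀ (q : Matrix.SpecialLinearGroup (Fin 2) (ZMod p)) (t : T4), q.val = toM p t →
      (act gA q L).val = toM p (L.foldl (fun acc i => mmul p acc (gN i)) t) := by
  induction L with
  | nil => intro q t hq; exact hq
  | cons i L ih =>
    intro q t hq
    rw [act_cons, List.foldl_cons]
    apply ih
    rw [Matrix.SpecialLinearGroup.coe_mul, hq, h i, toM_mmul]

theorem ev_val (p : ℕ) (gA : ℕ → Matrix.SpecialLinearGroup (Fin 2) (ZMod p)) (gN : ℕ → T4)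
    (h : ∀ i, (gA i).val = toM p (gN i)) (L : List ℕ) :
    (ev gA L).val = toM p (evN p gN L) :=
  act_val p gA gN h L 1 (1, 0, 0, 1) (by rw [toM_one]; rfl)

theorem key_ev (p : ℕ) [NeZero p] (gA : ℕ → Matrix.SpecialLinearGroup (Fin 2) (ZMod p))
    (gN : ℕ → T4) (h : ∀ i, (gA i).val = toM p (gN i)) (L : List ℕ) :
    key p (ev gA L).val = red p (evN p gN L) := by
  rw [ev_val p gA gN h, key_toM]

/-- If the reduced values of the words of a list are pairwise distinct, then so are the values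
in `SL(2, p)`. -/
theorem ev_injective (p : ℕ) [NeZero p] (gA : ℕ → Matrix.SpecialLinearGroup (Fin 2) (ZMod p))
    (gN : ℕ → T4) (h : ∀ i, (gA i).val = toM p (gN i)) {n : ℕ} (w : Fin n → List ℕ)
    (hnd : (List.ofFn (fun j : Fin n => red p (evN p gN (w j)))).Nodup) :
    Function.Injective (fun j : Fin n => ev gA (w j)) := by
  have h1 := List.nodup_ofFn.mp hnd
  have h2 : (fun j : Fin n => red p (evN p gN (w j))) =
      (fun a : Matrix.SpecialLinearGroup (Fin 2) (ZMod p) => key p a.val) ∘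
        (fun j : Fin n => ev gA (w j)) := by
    funext j
    exact (key_ev p gA gN h (w j)).symm
  rw [h2] at h1
  exact Function.Injective.of_comp h1

/-- A matrix of determinant one whose trace is not `2` has no nonzero fixed vector. -/
theorem eq_zero_of_mulVec_eq {F : Type*} [Field F] (M : Matrix (Fin 2) (Fin 2) F)
    (hdet : M.det = 1) (htr : M 0 0 + M 1 1 ≠ 2) (v : Fin 2 → F) (hv : M.mulVec v = v) : v = 0 := by
  have h1 : (M - 1).det ≠ 0 := by
    rw [Matrix.det_fin_two] at hdet ⊢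
    simp only [Matrix.sub_apply, Matrix.one_apply_eq, ne_eq, not_false_eq_true,
      Matrix.one_apply_ne, sub_zero, show (0 : Fin 2) ≠ 1 from by decide,
      show (1 : Fin 2) ≠ 0 from by decide]
    intro h0
    apply htr
    linear_combination hdet - h0
  apply Matrix.eq_zero_of_mulVec_eq_zero h1
  rw [Matrix.sub_mulVec, hv, Matrix.one_mulVec, sub_self]

end Cfsg.Agent.Lib.Helper20.Mat2
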