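import Cfsg.Agent.Lib.Helper20.PrimeDeg

/-!
# Polynomial functions on `ZMod p` with values in a field of characteristic `p`

Power sums over `ZMod p`, and: a self-map of `ZMod p` preserving the space of polynomial
functions of degree `< r` (`2 ≤ r`, `2 * (r - 1) ≤ p - 1`) is affine.
-/

set_option autoImplicit false

namespace Cfsg.Agent.Lib.Helper20.PrimeDeg

open Polynomial

variable {p : ℕ} [Fact p.Prime]

theorem sum_cast_pow_lt (K : Type*) [Field K] [CharP K p] (i : ℕ) (hi : i < p - 1) :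
    ∑ j : ZMod p, (ZMod.cast j : K) ^ i = 0 := by
  have h1 : ∑ j : ZMod p, j ^ i = 0 :=
    FiniteField.sum_pow_lt_card_sub_one (ZMod p) i (by rw [ZMod.card]; exact hi)
  have h2 := congrArg (ZMod.castHom (dvd_refl p) K) h1
  rw [map_sum, map_zero] at h2
  rw [← h2]
  apply Finset.sum_congr rfl
  intro j _
  rw [map_pow, ZMod.castHom_apply]

theorem sum_cast_pow_pred (K : Type*) [Field K] [CharP K p] :
    ∑ j : ZMod p, (ZMod.cast j : K) ^ (p - 1) = -1 := by
  classical
  have hp : p.Prime := Fact.out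
  have : NeZero p := ⟨hp.ne_zero⟩
  have h1 : ∀ j : ZMod p, (ZMod.cast j : K) ^ (p - 1) = if j = 0 then 0 else 1 := by
    intro j
    by_cases hj : j = 0
    · rw [if_pos hj, hj, ZMod.cast_zero, zero_pow]
      have := hp.two_le
      omega
    · rw [if_neg hj]
      have h2 := ZMod.pow_card_sub_one_eq_one hj
      have h3 := congrArg (ZMod.castHom (dvd_refl p) K) h2
      rw [map_pow, map_one, ZMod.castHom_apply] at h3
      exact h3
  rw [Finset.sum_congr rfl (fun j _ => h1 j), Finset.sum_ite, Finset.sum_const_zero, zero_add,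
    Finset.sum_const, nsmul_eq_mul, mul_one]
  have h4 : (Finset.univ.filter (fun j : ZMod p => ¬ j = 0)).card = p - 1 := by
    have h5 : Finset.univ.filter (fun j : ZMod p => ¬ j = 0) = Finset.univ.erase 0 := by
      ext j
      simp
    rw [h5, Finset.card_erase_of_mem (Finset.mem_univ _), Finset.card_univ, ZMod.card]
  rw [h4, Nat.cast_sub hp.pos, CharP.cast_eq_zero K p]
  simp

theorem sum_eval_cast_eq_zero (K : Type*) [Field K] [CharP K p] (R : K[X])
    (hR : R.natDegree + 2 ≤ p) : ∑ j : ZMod p, R.eval (ZMod.cast j : K) = 0 := by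
  have hev : ∀ j : ZMod p, R.eval (ZMod.cast j : K) =
      ∑ i ∈ Finset.range (p - 1), R.coeff i * (ZMod.cast j : K) ^ i := by
    intro j
    exact eval_eq_sum_range' (by omega) _
  rw [Finset.sum_congr rfl (fun j _ => hev j), Finset.sum_comm]
  apply Finset.sum_eq_zero
  intro i hi
  rw [← Finset.mul_sum, sum_cast_pow_lt K i (Finset.mem_range.mp hi), mul_zero]

/-- A non-constant self-map of `ZMod p` preserving the space of polynomial functions of degree
`< r`, where `2 ≤ r` and `2 * (r - 1) ≤ p - 1`, is affine. -/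
theorem affine_of_invariant {K : Type*} [Field K] [CharP K p] (U : Submodule K (ZMod p → K))
    (r : ℕ) (hr2 : 2 ≤ r) (hr : 2 * (r - 1) ≤ p - 1)
    (hU : ∀ f : ZMod p → K, f ∈ U ↔
      ∃ P : K[X], P.degree < r ∧ ∀ j : ZMod p, f j = P.eval (ZMod.cast j : K))
    (g : ZMod p → ZMod p) (hg : g 0 ≠ g 1) (hinv : ∀ f ∈ U, (fun j => f (g j)) ∈ U) :
    ∃ a c : ZMod p, ∀ x, g x = a * x + c := by
  apply affine_of_pow_degree_le (ZMod.castHom (dvd_refl p) K) g hg (r - 1) (by omega) hr
  intro k hk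
  have h1 : (fun j : ZMod p => (ZMod.cast j : K) ^ k) ∈ U := by
    rw [hU]
    refine ⟨X ^ k, ?_, fun j => by simp⟩
    rw [degree_X_pow]
    exact_mod_cast (show k < r by omega)
  have h2 := hinv _ h1
  rw [hU] at h2
  obtain ⟨Q, hQd, hQ⟩ := h2
  refine ⟨Q, ?_, fun x => ?_⟩
  · by_cases hQ0 : Q = 0
    · rw [hQ0, natDegree_zero]; exact Nat.zero_le _
    · have := (natDegree_lt_iff_degree_lt hQ0).mpr hQd
      omega
  · rw [ZMod.castHom_apply, ZMod.castHom_apply]
    exact (hQ x).symm

end Cfsg.Agent.Lib.Helper20.PrimeDeg
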