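import Mathlib
import Cfsg.Agent.Lib.Helper20.Mat2
import Cfsg.Agent.Lib.Helper15.GL2Centralizer

/-!
# The presentation `⟨x, y, z | x³, y⁵, z², [z, x], [z, y], (xy)² = z⟩` of `SL(2, 5)`

and an embedding of this group into `SL(2, 11)` all of whose non-identity elements have trace
different from `2` (so that it acts fixed-point-freely on the plane over `ZMod 11`).
-/

set_option autoImplicit false

namespace Cfsg.Agent.Lib.Helper20.SL25

open Cfsg.Agent.Lib.Helper20.Enum Cfsg.Agent.Lib.Helper20.Mat2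

def cert : Cfsg.Agent.Lib.Helper20.Enum.Cert where
  ngens := 3
  words := [[],
    [0],
    [1],
    [2],
    [0, 0],
    [0, 1],
    [0, 2],
    [1, 0],
    [1, 1],
    [1, 2],
    [0, 0, 1],
    [0, 0, 2],
    [0, 1, 0],
    [0, 1, 1],
    [0, 1, 2],
    [1, 0, 0],
    [1, 0, 2],
    [1, 1, 0],
    [1, 1, 1],
    [1, 1, 2],
    [0, 0, 1, 0],
    [0, 0, 1, 1],
    [0, 0, 1, 2],
    [0, 1, 0, 0],
    [0, 1, 0, 2],
    [0, 1, 1, 0],
    [0, 1, 1, 1],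
    [0, 1, 1, 2],
    [1, 0, 0, 1],
    [1, 0, 0, 2],
    [1, 1, 0, 0],
    [1, 1, 0, 2],
    [1, 1, 1, 0],
    [1, 1, 1, 2],
    [0, 0, 1, 0, 0],
    [0, 0, 1, 0, 2],
    [0, 0, 1, 1, 0],
    [0, 0, 1, 1, 1],
    [0, 0, 1, 1, 2],
    [0, 1, 0, 0, 1],
    [0, 1, 0, 0, 2],
    [0, 1, 1, 0, 0],
    [0, 1, 1, 0, 2],
    [0, 1, 1, 1, 0],
    [0, 1, 1, 1, 2],
    [1, 0, 0, 1, 1],
    [1, 0, 0, 1, 2],
    [1, 1, 0, 0, 1],
    [1, 1, 0, 0, 2],
    [1, 1, 1, 0, 2],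
    [0, 0, 1, 0, 0, 1],
    [0, 0, 1, 0, 0, 2],
    [0, 0, 1, 1, 0, 0],
    [0, 0, 1, 1, 0, 2],
    [0, 0, 1, 1, 1, 0],
    [0, 0, 1, 1, 1, 2],
    [0, 1, 0, 0, 1, 1],
    [0, 1, 0, 0, 1, 2],
    [0, 1, 1, 0, 0, 1],
    [0, 1, 1, 0, 0, 2],
    [0, 1, 1, 1, 0, 2],
    [1, 0, 0, 1, 1, 0],
    [1, 0, 0, 1, 1, 1],
    [1, 0, 0, 1, 1, 2],
    [1, 1, 0, 0, 1, 1],
    [1, 1, 0, 0, 1, 2],
    [0, 0, 1, 0, 0, 1, 1],
    [0, 0, 1, 0, 0, 1, 2],
    [0, 0, 1, 1, 0, 0, 1],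
    [0, 0, 1, 1, 0, 0, 2],
    [0, 0, 1, 1, 1, 0, 2],
    [0, 1, 0, 0, 1, 1, 0],
    [0, 1, 0, 0, 1, 1, 1],
    [0, 1, 0, 0, 1, 1, 2],
    [0, 1, 1, 0, 0, 1, 1],
    [0, 1, 1, 0, 0, 1, 2],
    [1, 0, 0, 1, 1, 0, 0],
    [1, 0, 0, 1, 1, 0, 2],
    [1, 0, 0, 1, 1, 1, 0],
    [1, 0, 0, 1, 1, 1, 2],
    [1, 1, 0, 0, 1, 1, 0],
    [1, 1, 0, 0, 1, 1, 2],
    [0, 0, 1, 0, 0, 1, 1, 0],
    [0, 0, 1, 0, 0, 1, 1, 1],
    [0, 0, 1, 0, 0, 1, 1, 2],
    [0, 0, 1, 1, 0, 0, 1, 1],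
    [0, 0, 1, 1, 0, 0, 1, 2],
    [0, 1, 0, 0, 1, 1, 0, 0],
    [0, 1, 0, 0, 1, 1, 0, 2],
    [0, 1, 0, 0, 1, 1, 1, 0],
    [0, 1, 0, 0, 1, 1, 1, 2],
    [0, 1, 1, 0, 0, 1, 1, 0],
    [0, 1, 1, 0, 0, 1, 1, 2],
    [1, 0, 0, 1, 1, 0, 0, 1],
    [1, 0, 0, 1, 1, 0, 0, 2],
    [1, 0, 0, 1, 1, 1, 0, 2],
    [1, 1, 0, 0, 1, 1, 0, 0],
    [1, 1, 0, 0, 1, 1, 0, 2],
    [0, 0, 1, 0, 0, 1, 1, 0, 0],
    [0, 0, 1, 0, 0, 1, 1, 0, 2],
    [0, 0, 1, 0, 0, 1, 1, 1, 0],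
    [0, 0, 1, 0, 0, 1, 1, 1, 2],
    [0, 0, 1, 1, 0, 0, 1, 1, 0],
    [0, 0, 1, 1, 0, 0, 1, 1, 2],
    [0, 1, 0, 0, 1, 1, 0, 0, 1],
    [0, 1, 0, 0, 1, 1, 0, 0, 2],
    [0, 1, 0, 0, 1, 1, 1, 0, 2],
    [0, 1, 1, 0, 0, 1, 1, 0, 0],
    [0, 1, 1, 0, 0, 1, 1, 0, 2],
    [1, 0, 0, 1, 1, 0, 0, 1, 1],
    [1, 0, 0, 1, 1, 0, 0, 1, 2],
    [1, 1, 0, 0, 1, 1, 0, 0, 1],
    [0, 0, 1, 0, 0, 1, 1, 0, 0, 1],
    [0, 0, 1, 0, 0, 1, 1, 0, 0, 2],
    [0, 0, 1, 0, 0, 1, 1, 1, 0, 2],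
    [0, 0, 1, 1, 0, 0, 1, 1, 0, 2],
    [0, 1, 0, 0, 1, 1, 0, 0, 1, 1],
    [0, 1, 1, 0, 0, 1, 1, 0, 0, 1],
    [1, 0, 0, 1, 1, 0, 0, 1, 1, 0],
    [1, 0, 0, 1, 1, 0, 0, 1, 1, 2]]
  tab := [[1, 4, 7, 6, 0, 12, 11, 15, 17, 16, 20, 3, 23, 25, 24, 2, 29, 30, 32, 31, 34, 36, 35, 5, 40, 41, 43, 42, 37, 9, 8, 48, 39, 49, 10, 51, 52, 54, 53, 18, 14, 13, 59, 50, 60, 61, 55, 62, 19, 57, 26, 22, 21, 69, 28, 70, 71, 33, 72, 27, 67, 76, 78, 77, 80, 79, 82, 44, 83, 38, 46, 87, 89, 88, 91, 90, 45, 94, 47, 95, 96, 97, 98, 100, 99, 102, 101, 56, 105, 58, 106, 107, 108, 103, 63, 65, 64, 104, 66, 113, 68, 114, 110, 115, 81, 73, 75, 74, 112, 118, 85, 119, 92, 84, 86, 93, 109, 111, 116, 117],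
    [2, 5, 8, 9, 10, 13, 14, 11, 18, 19, 21, 22, 3, 26, 27, 28, 4, 29, 24, 33, 6, 37, 38, 39, 0, 40, 35, 44, 45, 46, 47, 15, 48, 12, 50, 1, 51, 16, 55, 56, 57, 58, 23, 59, 20, 62, 63, 64, 65, 30, 66, 67, 68, 34, 69, 7, 72, 73, 74, 75, 41, 70, 31, 79, 71, 81, 83, 84, 85, 86, 52, 49, 42, 90, 82, 92, 93, 54, 94, 17, 95, 88, 60, 53, 101, 61, 103, 104, 32, 105, 25, 106, 99, 109, 110, 76, 111, 78, 112, 43, 113, 36, 114, 77, 116, 96, 87, 117, 89, 80, 119, 108, 118, 107, 98, 100, 91, 115, 102, 97],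
    [3, 6, 9, 0, 11, 14, 1, 16, 19, 2, 22, 4, 24, 27, 5, 29, 7, 31, 33, 8, 35, 38, 10, 40, 12, 42, 44, 13, 46, 15, 48, 17, 49, 18, 51, 20, 53, 55, 21, 57, 23, 59, 25, 60, 26, 63, 28, 65, 30, 32, 67, 34, 69, 36, 70, 37, 73, 39, 75, 41, 43, 77, 79, 45, 81, 47, 84, 50, 86, 52, 54, 88, 90, 56, 92, 58, 94, 61, 95, 62, 97, 64, 99, 101, 66, 103, 68, 105, 71, 106, 72, 108, 74, 110, 76, 78, 104, 80, 113, 82, 114, 83, 115, 85, 96, 87, 89, 112, 91, 119, 93, 116, 107, 98, 100, 102, 111, 118, 117, 109]]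
  rels := [[0, 0, 0], [1, 1, 1, 1, 1], [2, 2], [2, 0, 2, 0, 0], [2, 1, 2, 1, 1, 1, 1], [0, 1, 0, 1, 2]]
  steps := [(0, [0, 0], 0, []),
    (2, [0, 0], 0, []),
    (5, [0, 0], 0, []),
    (8, [0, 0], 0, []),
    (10, [0, 0], 0, []),
    (13, [0, 0], 0, []),
    (21, [0, 0], 0, []),
    (45, [0, 0], 0, []),
    (56, [0, 0], 0, []),
    (64, [0, 0], 0, []),
    (66, [0, 0], 0, []),
    (74, [0, 0], 0, []),
    (0, [2], 2, []),
    (1, [2], 2, []),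
    (2, [2], 2, []),
    (4, [2], 2, []),
    (5, [2], 2, []),
    (7, [2], 2, []),
    (8, [2], 2, []),
    (10, [2], 2, []),
    (12, [2], 2, []),
    (13, [2], 2, []),
    (15, [2], 2, []),
    (17, [2], 2, []),
    (18, [2], 2, []),
    (20, [2], 2, []),
    (21, [2], 2, []),
    (23, [2], 2, []),
    (25, [2], 2, []),
    (26, [2], 2, []),
    (28, [2], 2, []),
    (30, [2], 2, []),
    (32, [2], 2, []),
    (34, [2], 2, []),
    (36, [2], 2, []),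
    (37, [2], 2, []),
    (39, [2], 2, []),
    (41, [2], 2, []),
    (43, [2], 2, []),
    (45, [2], 2, []),
    (47, [2], 2, []),
    (50, [2], 2, []),
    (52, [2], 2, []),
    (54, [2], 2, []),
    (56, [2], 2, []),
    (58, [2], 2, []),
    (61, [2], 2, []),
    (62, [2], 2, []),
    (64, [2], 2, []),
    (66, [2], 2, []),
    (68, [2], 2, []),
    (71, [2], 2, []),
    (72, [2], 2, []),
    (74, [2], 2, []),
    (76, [2], 2, []),
    (78, [2], 2, []),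
    (80, [2], 2, []),
    (82, [2], 2, []),
    (83, [2], 2, []),
    (85, [2], 2, []),
    (87, [2], 2, []),
    (89, [2], 2, []),
    (91, [2], 2, []),
    (93, [2], 2, []),
    (98, [2], 2, []),
    (100, [2], 2, []),
    (102, [2], 2, []),
    (109, [2], 2, []),
    (0, [2], 0, [2, 0, 0]),
    (1, [2], 0, [2, 0, 0]),
    (2, [2], 0, [2, 0, 0]),
    (3, [2, 0, 2, 0], 0, []),
    (5, [2], 0, [2, 0, 0]),
    (7, [2], 0, [2, 0, 0]),
    (8, [2], 0, [2, 0, 0]),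
    (9, [2, 0, 2, 0], 0, []),
    (10, [2], 0, [2, 0, 0]),
    (12, [2], 0, [2, 0, 0]),
    (13, [2], 0, [2, 0, 0]),
    (14, [2, 0, 2, 0], 0, []),
    (17, [2], 0, [2, 0, 0]),
    (19, [2, 0, 2, 0], 0, []),
    (20, [2], 0, [2, 0, 0]),
    (21, [2], 0, [2, 0, 0]),
    (22, [2, 0, 2, 0], 0, []),
    (25, [2], 0, [2, 0, 0]),
    (27, [2, 0, 2, 0], 0, []),
    (36, [2], 0, [2, 0, 0]),
    (38, [2, 0, 2, 0], 0, []),
    (45, [2], 0, [2, 0, 0]),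
    (56, [2], 0, [2, 0, 0]),
    (61, [2], 0, [2, 0, 0]),
    (63, [2, 0, 2, 0], 0, []),
    (64, [2], 0, [2, 0, 0]),
    (66, [2], 0, [2, 0, 0]),
    (71, [2], 0, [2, 0, 0]),
    (73, [2, 0, 2, 0], 0, []),
    (74, [2], 0, [2, 0, 0]),
    (82, [2], 0, [2, 0, 0]),
    (84, [2, 0, 2, 0], 0, []),
    (0, [0, 1, 0], 1, [2]),
    (1, [0, 1, 0], 1, [2]),
    (4, [0, 1, 0], 1, [2]),
    (5, [0, 1, 0], 1, [2]),
    (9, [0], 1, [0, 1, 2]),
    (10, [0, 1, 0], 1, [2]),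
    (11, [0], 1, [0, 1, 2]),
    (14, [0], 1, [0, 1, 2]),
    (15, [0, 1, 0], 1, [2]),
    (19, [0], 1, [0, 1, 2]),
    (22, [0], 1, [0, 1, 2]),
    (23, [0, 1, 0], 1, [2]),
    (27, [0], 1, [0, 1, 2]),
    (29, [0], 1, [0, 1, 2]),
    (30, [0, 1, 0], 1, [2]),
    (34, [0, 1, 0], 1, [2]),
    (38, [0], 1, [0, 1, 2]),
    (40, [0], 1, [0, 1, 2]),
    (41, [0, 1, 0], 1, [2]),
    (51, [0], 1, [0, 1, 2]),
    (52, [0, 1, 0], 1, [2]),
    (76, [0, 1, 0], 1, [2]),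
    (87, [0, 1, 0], 1, [2]),
    (98, [0, 1, 0], 1, [2]),
    (0, [1, 1, 1], 1, [1]),
    (1, [1, 1, 1], 1, [1]),
    (4, [1, 1, 1], 1, [1]),
    (15, [1, 1, 1], 1, [1]),
    (23, [1, 1, 1], 1, [1]),
    (34, [1, 1, 1], 1, [1]),
    (8, [2], 1, [2, 1, 1, 1, 1]),
    (9, [2, 1, 2, 1], 1, [1, 1]),
    (13, [2], 1, [2, 1, 1, 1, 1]),
    (14, [2, 1, 2, 1], 1, [1, 1]),
    (15, [2], 1, [2, 1, 1, 1, 1]),
    (21, [2], 1, [2, 1, 1, 1, 1]),
    (22, [2, 1, 2, 1], 1, [1, 1]),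
    (23, [2], 1, [2, 1, 1, 1, 1]),
    (28, [2], 1, [2, 1, 1, 1, 1]),
    (34, [2], 1, [2, 1, 1, 1, 1]),
    (39, [2], 1, [2, 1, 1, 1, 1]),
    (45, [2], 1, [2, 1, 1, 1, 1]),
    (46, [2, 1, 2, 1], 1, [1, 1]),
    (50, [2], 1, [2, 1, 1, 1, 1]),
    (56, [2], 1, [2, 1, 1, 1, 1]),
    (57, [2, 1, 2, 1], 1, [1, 1]),
    (66, [2], 1, [2, 1, 1, 1, 1]),
    (67, [2, 1, 2, 1], 1, [1, 1]),
    (7, [0, 1], 0, [1, 2]),
    (12, [0, 1], 0, [1, 2]),
    (16, [0, 1], 0, [1, 2]),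
    (17, [0, 1], 0, [1, 2]),
    (20, [0, 1], 0, [1, 2]),
    (24, [0, 1], 0, [1, 2]),
    (25, [0, 1], 0, [1, 2]),
    (35, [0, 1], 0, [1, 2]),
    (36, [0, 1], 0, [1, 2]),
    (47, [0, 1, 0], 1, [2]),
    (58, [0, 1, 0], 1, [2]),
    (65, [], 0, [1, 0, 1, 2]),
    (68, [0, 1, 0], 1, [2]),
    (75, [], 0, [1, 0, 1, 2]),
    (86, [], 0, [1, 0, 1, 2]),
    (18, [0], 0, [0]),
    (26, [0], 0, [0]),
    (28, [0, 0], 0, []),
    (47, [0, 0], 0, []),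
    (58, [0, 0], 0, []),
    (68, [0, 0], 0, []),
    (18, [2], 0, [2, 0, 0]),
    (26, [2], 0, [2, 0, 0]),
    (32, [2], 0, [2, 0, 0]),
    (37, [2], 0, [2, 0, 0]),
    (43, [2], 0, [2, 0, 0]),
    (46, [2, 0, 2, 0], 0, []),
    (62, [2], 0, [2, 0, 0]),
    (65, [2, 0, 2, 0], 0, []),
    (72, [2], 0, [2, 0, 0]),
    (75, [2, 0, 2, 0], 0, []),
    (83, [2], 0, [2, 0, 0]),
    (86, [2, 0, 2, 0], 0, []),
    (32, [0, 1, 0], 1, [2]),
    (33, [0], 1, [0, 1, 2]),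
    (43, [0, 1, 0], 1, [2]),
    (44, [0], 1, [0, 1, 2]),
    (45, [0], 1, [0, 1, 2]),
    (49, [0, 1, 0], 1, [2]),
    (55, [0], 1, [0, 1, 2]),
    (60, [0, 1, 0], 1, [2]),
    (63, [0], 1, [0, 1, 2]),
    (78, [0, 1, 0], 1, [2]),
    (79, [0], 1, [0, 1, 2]),
    (81, [0], 1, [0, 1, 2]),
    (89, [0, 1, 0], 1, [2]),
    (90, [0], 1, [0, 1, 2]),
    (92, [0], 1, [0, 1, 2]),
    (95, [0], 1, [0, 1, 2]),
    (100, [0, 1, 0], 1, [2]),
    (101, [0], 1, [0, 1, 2]),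
    (106, [0], 1, [0, 1, 2]),
    (30, [1, 1], 1, [1, 1]),
    (32, [1, 1, 1], 1, [1]),
    (41, [1, 1], 1, [1, 1]),
    (43, [1, 1, 1], 1, [1]),
    (52, [1, 1], 1, [1, 1]),
    (76, [1, 1], 1, [1, 1]),
    (87, [1, 1], 1, [1, 1]),
    (68, [2], 1, [2, 1, 1, 1, 1]),
    (69, [2, 1, 2, 1], 1, [1, 1]),
    (76, [2], 1, [2, 1, 1, 1, 1]),
    (93, [2], 1, [2, 1, 1, 1, 1]),
    (94, [2, 1, 2, 1], 1, [1, 1]),
    (61, [0, 1], 0, [1, 2]),
    (71, [0, 1], 0, [1, 2]),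
    (77, [0, 1], 0, [1, 2]),
    (80, [0, 1], 0, [1, 2]),
    (82, [0, 1], 0, [1, 2]),
    (88, [0], 1, [0, 1, 2]),
    (96, [0, 1, 0, 1], 2, []),
    (99, [0], 1, [0, 1, 2]),
    (104, [0, 1, 0, 1], 2, []),
    (107, [0, 1, 0, 1], 2, []),
    (112, [0, 1, 0, 1], 2, []),
    (81, [0], 0, [0]),
    (85, [0], 0, [0]),
    (92, [0], 0, [0]),
    (89, [1, 1, 1], 1, [1]),
    (85, [2], 0, [2, 0, 0]),
    (93, [2, 0, 2, 0], 0, []),
    (96, [2, 1], 2, [1, 1, 1, 1]),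
    (104, [2, 1], 2, [1, 1, 1, 1]),
    (115, [2, 1, 2, 1, 1, 1], 1, []),
    (91, [0, 1], 0, [1, 2]),
    (97, [0, 1], 0, [1, 2]),
    (102, [0, 1], 0, [1, 2]),
    (103, [0], 1, [0, 1, 2]),
    (109, [0], 1, [0, 1, 2]),
    (109, [0], 0, [0]),
    (98, [1], 1, [1, 1, 1]),
    (109, [2, 0], 2, [0, 0]),
    (118, [], 2, [0, 2, 0, 0])]

theorem cert_ok : check cert = true := by decide +kernel

theorem cert_rels : cert.rels =
    [[0, 0, 0], [1, 1, 1, 1, 1], [2, 2], [2, 0, 2, 0, 0], [2, 1, 2, 1, 1, 1, 1], [0, 1, 0, 1, 2]] := rfl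

theorem cert_len : cert.words.length = 120 := by decide +kernel

theorem cert_word0 : cert.wordAt 0 = [] := rfl

abbrev rels : Set (FreeGroup (Fin 3)) :=
  {FreeGroup.of (0 : Fin 3) ^ 3, FreeGroup.of (1 : Fin 3) ^ 5, FreeGroup.of (2 : Fin 3) ^ 2,
    (FreeGroup.of (2 : Fin 3))⁻¹ * FreeGroup.of 0 * FreeGroup.of 2 * (FreeGroup.of (0 : Fin 3))⁻¹,
    (FreeGroup.of (2 : Fin 3))⁻¹ * FreeGroup.of 1 * FreeGroup.of 2 * (FreeGroup.of (1 : Fin 3))⁻¹,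
    (FreeGroup.of (0 : Fin 3) * FreeGroup.of 1) ^ 2 * (FreeGroup.of (2 : Fin 3))⁻¹}

def gP : ℕ → PresentedGroup rels := fun i =>
  match i with
  | 0 => PresentedGroup.of 0
  | 1 => PresentedGroup.of 1
  | 2 => PresentedGroup.of 2
  | _ => 1

theorem hx : (PresentedGroup.of (0 : Fin 3) : PresentedGroup rels) ^ 3 = 1 := by
  have h0 := PresentedGroup.one_of_mem (rels := rels) (x := FreeGroup.of (0 : Fin 3) ^ 3)
    (Set.mem_insert _ _)
  rw [map_pow] at h0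
  exact h0

theorem hy : (PresentedGroup.of (1 : Fin 3) : PresentedGroup rels) ^ 5 = 1 := by
  have h0 := PresentedGroup.one_of_mem (rels := rels) (x := FreeGroup.of (1 : Fin 3) ^ 5)
    (Set.mem_insert_of_mem _ (Set.mem_insert _ _))
  rw [map_pow] at h0
  exact h0

theorem hz : (PresentedGroup.of (2 : Fin 3) : PresentedGroup rels) ^ 2 = 1 := by
  have h0 := PresentedGroup.one_of_mem (rels := rels) (x := FreeGroup.of (2 : Fin 3) ^ 2)
    (Set.mem_insert_of_mem _ (Set.mem_insert_of_mem _ (Set.mem_insert _ _)))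
  rw [map_pow] at h0
  exact h0

theorem hzx : (PresentedGroup.of (0 : Fin 3) : PresentedGroup rels) * PresentedGroup.of 2 =
    PresentedGroup.of 2 * PresentedGroup.of 0 := by
  have h0 := PresentedGroup.one_of_mem (rels := rels)
    (x := (FreeGroup.of (2 : Fin 3))⁻¹ * FreeGroup.of 0 * FreeGroup.of 2 * (FreeGroup.of (0 : Fin 3))⁻¹)
    (Set.mem_insert_of_mem _ (Set.mem_insert_of_mem _ (Set.mem_insert_of_mem _ (Set.mem_insert _ _))))
  rw [map_mul, map_mul, map_mul, map_inv, map_inv] at h0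
  have h1 := mul_inv_eq_one.mp h0
  rw [mul_assoc, inv_mul_eq_iff_eq_mul] at h1
  exact h1

theorem hzy : (PresentedGroup.of (1 : Fin 3) : PresentedGroup rels) * PresentedGroup.of 2 =
    PresentedGroup.of 2 * PresentedGroup.of 1 := by
  have h0 := PresentedGroup.one_of_mem (rels := rels)
    (x := (FreeGroup.of (2 : Fin 3))⁻¹ * FreeGroup.of 1 * FreeGroup.of 2 * (FreeGroup.of (1 : Fin 3))⁻¹)
    (Set.mem_insert_of_mem _ (Set.mem_insert_of_mem _ (Set.mem_insert_of_mem _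
      (Set.mem_insert_of_mem _ (Set.mem_insert _ _)))))
  rw [map_mul, map_mul, map_mul, map_inv, map_inv] at h0
  have h1 := mul_inv_eq_one.mp h0
  rw [mul_assoc, inv_mul_eq_iff_eq_mul] at h1
  exact h1

theorem hxy : ((PresentedGroup.of (0 : Fin 3) : PresentedGroup rels) * PresentedGroup.of 1) ^ 2 =
    PresentedGroup.of 2 := by
  have h0 := PresentedGroup.one_of_mem (rels := rels)
    (x := (FreeGroup.of (0 : Fin 3) * FreeGroup.of 1) ^ 2 * (FreeGroup.of (2 : Fin 3))⁻¹)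
    (Set.mem_insert_of_mem _ (Set.mem_insert_of_mem _ (Set.mem_insert_of_mem _
      (Set.mem_insert_of_mem _ (Set.mem_insert_of_mem _ (Set.mem_singleton _))))))
  rw [map_mul, map_pow, map_mul, map_inv] at h0
  exact mul_inv_eq_one.mp h0

theorem relP : ∀ R ∈ cert.rels, ev gP R = 1 := by
  intro R hR
  rw [cert_rels] at hR
  simp only [List.mem_cons, List.not_mem_nil, or_false] at hR
  rcases hR with rfl | rfl | rfl | rfl | rfl | rfl
  · show 1 * PresentedGroup.of 0 * PresentedGroup.of 0 * PresentedGroup.of 0 = 1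
    rw [one_mul, ← pow_two, ← pow_succ]
    exact hx
  · show 1 * PresentedGroup.of 1 * PresentedGroup.of 1 * PresentedGroup.of 1 * PresentedGroup.of 1 *
      PresentedGroup.of 1 = 1
    rw [one_mul, ← pow_two, ← pow_succ, ← pow_succ, ← pow_succ]
    exact hy
  · show 1 * PresentedGroup.of 2 * PresentedGroup.of 2 = 1
    rw [one_mul, ← pow_two]
    exact hz
  · show 1 * PresentedGroup.of 2 * PresentedGroup.of 0 * PresentedGroup.of 2 * PresentedGroup.of 0 *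
      PresentedGroup.of 0 = 1
    rw [one_mul, mul_assoc (PresentedGroup.of 2) (PresentedGroup.of 0) (PresentedGroup.of 2), hzx,
      ← mul_assoc, ← pow_two, hz, one_mul, ← pow_two, ← pow_succ]
    exact hx
  · show 1 * PresentedGroup.of 2 * PresentedGroup.of 1 * PresentedGroup.of 2 * PresentedGroup.of 1 *
      PresentedGroup.of 1 * PresentedGroup.of 1 * PresentedGroup.of 1 = 1
    rw [one_mul, mul_assoc (PresentedGroup.of 2) (PresentedGroup.of 1) (PresentedGroup.of 2), hzy,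
      ← mul_assoc, ← pow_two, hz, one_mul, ← pow_two, ← pow_succ, ← pow_succ, ← pow_succ]
    exact hy
  · show 1 * PresentedGroup.of 0 * PresentedGroup.of 1 * PresentedGroup.of 0 * PresentedGroup.of 1 *
      PresentedGroup.of 2 = 1
    rw [one_mul, mul_assoc (PresentedGroup.of 0 * PresentedGroup.of 1), ← pow_two, hxy, ← pow_two]
    exact hz

theorem hg1 : ∀ i, cert.ngens ≤ i → gP i = 1 := by
  intro i hi
  have h2 : 3 ≤ i := hi
  match i, h2 with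
  | (n + 3), _ => rfl

theorem hgen : Subgroup.closure (Set.range gP) = ⊤ := by
  rw [eq_top_iff, ← PresentedGroup.closure_range_of rels]
  apply Subgroup.closure_mono
  rintro _ ⟨i, rfl⟩
  fin_cases i
  · exact ⟨0, rfl⟩
  · exact ⟨1, rfl⟩
  · exact ⟨2, rfl⟩

/-- Every element of the presented group is the value of one of the 120 words. -/
theorem exists_word_P (p : PresentedGroup rels) : ∃ j : Fin 120, p = ev gP (cert.wordAt j) := by
  obtain ⟨j, hj, e⟩ := exists_word gP cert cert_ok relP hg1 hgen p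
  rw [cert_len] at hj
  exact ⟨⟨j, hj⟩, e⟩

instance finite_P : Finite (PresentedGroup rels) := (card_le gP cert cert_ok relP hg1 hgen).1

/-- A homomorphism from the presented group, from three elements satisfying the relations in
positive form. -/
theorem lift_rels {Q : Type*} [Group Q] (a b c : Q) (h1 : a ^ 3 = 1) (h2 : b ^ 5 = 1)
    (h3 : c ^ 2 = 1) (h4 : a * c = c * a) (h5 : b * c = c * b) (h6 : (a * b) ^ 2 = c) :
    ∀ r ∈ rels, FreeGroup.lift ![a, b, c] r = 1 := by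
  intro r hr
  simp only [rels, Set.mem_insert_iff, Set.mem_singleton_iff] at hr
  rcases hr with rfl | rfl | rfl | rfl | rfl | rfl
  · simpa using h1
  · simpa using h2
  · simpa using h3
  · simp only [map_mul, map_inv, FreeGroup.lift_apply_of, Matrix.cons_val_zero, Matrix.cons_val_two,
      Matrix.tail_cons, Matrix.head_cons]
    rw [mul_assoc c⁻¹, h4, inv_mul_cancel_left, mul_inv_cancel]
  · simp only [map_mul, map_inv, FreeGroup.lift_apply_of, Matrix.cons_val_one, Matrix.cons_val_two,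
      Matrix.tail_cons, Matrix.head_cons, Matrix.cons_val_zero]
    rw [mul_assoc c⁻¹, h5, inv_mul_cancel_left, mul_inv_cancel]
  · simp only [map_mul, map_inv, map_pow, FreeGroup.lift_apply_of, Matrix.cons_val_one,
      Matrix.cons_val_two, Matrix.tail_cons, Matrix.head_cons, Matrix.cons_val_zero]
    rw [h6, mul_inv_cancel]

/-! ### The isomorphism with `SL(2, 5)` -/

def n5 : ℕ → T4 := fun i =>
  match i with
  | 0 => (0, 1, 4, 4)
  | 1 => (1, 0, 1, 1)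
  | 2 => (4, 0, 0, 4)
  | _ => (1, 0, 0, 1)

def mkSL (p : ℕ) (t : T4) (h : (toM p t).det = 1) : Matrix.SpecialLinearGroup (Fin 2) (ZMod p) :=
  ⟨toM p t, h⟩

def a5 : Matrix.SpecialLinearGroup (Fin 2) (ZMod 5) :=
  mkSL 5 (0, 1, 4, 4) (by rw [toM, Matrix.det_fin_two_of]; decide)

def b5 : Matrix.SpecialLinearGroup (Fin 2) (ZMod 5) :=
  mkSL 5 (1, 0, 1, 1) (by rw [toM, Matrix.det_fin_two_of]; decide)

def c5 : Matrix.SpecialLinearGroup (Fin 2) (ZMod 5) :=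
  mkSL 5 (4, 0, 0, 4) (by rw [toM, Matrix.det_fin_two_of]; decide)

def g5 : ℕ → Matrix.SpecialLinearGroup (Fin 2) (ZMod 5) := fun i =>
  match i with
  | 0 => a5
  | 1 => b5
  | 2 => c5
  | _ => 1

theorem g5_val : ∀ i, (g5 i).val = toM 5 (n5 i) := by
  intro i
  match i with
  | 0 => rfl
  | 1 => rfl
  | 2 => rfl
  | (n + 3) => exact (toM_one 5).symm

theorem ev_eq_of_evN_eq (p : ℕ) (gA : ℕ → Matrix.SpecialLinearGroup (Fin 2) (ZMod p)) (gN : ℕ → T4)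
    (h : ∀ i, (gA i).val = toM p (gN i)) (L L' : List ℕ) (e : evN p gN L = evN p gN L') :
    ev gA L = ev gA L' := by
  apply Subtype.ext
  rw [ev_val p gA gN h, ev_val p gA gN h, e]

theorem rel5 : a5 ^ 3 = 1 ∧ b5 ^ 5 = 1 ∧ c5 ^ 2 = 1 ∧ a5 * c5 = c5 * a5 ∧ b5 * c5 = c5 * b5 ∧
    (a5 * b5) ^ 2 = c5 := by
  have e1 : ev g5 [0, 0, 0] = ev g5 [] := ev_eq_of_evN_eq 5 g5 n5 g5_val _ _ (by decide +kernel)
  have e2 : ev g5 [1, 1, 1, 1, 1] = ev g5 [] := ev_eq_of_evN_eq 5 g5 n5 g5_val _ _ (by decide +kernel)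
  have e3 : ev g5 [2, 2] = ev g5 [] := ev_eq_of_evN_eq 5 g5 n5 g5_val _ _ (by decide +kernel)
  have e4 : ev g5 [0, 2] = ev g5 [2, 0] := ev_eq_of_evN_eq 5 g5 n5 g5_val _ _ (by decide +kernel)
  have e5 : ev g5 [1, 2] = ev g5 [2, 1] := ev_eq_of_evN_eq 5 g5 n5 g5_val _ _ (by decide +kernel)
  have e6 : ev g5 [0, 1, 0, 1] = ev g5 [2] := ev_eq_of_evN_eq 5 g5 n5 g5_val _ _ (by decide +kernel)
  refine ⟨?_, ?_, ?_, ?_, ?_, ?_⟩
  · have : (1 : Matrix.SpecialLinearGroup (Fin 2) (ZMod 5)) * a5 * a5 * a5 = 1 := e1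
    rw [pow_succ, pow_two]; rwa [one_mul] at this
  · have : (1 : Matrix.SpecialLinearGroup (Fin 2) (ZMod 5)) * b5 * b5 * b5 * b5 * b5 = 1 := e2
    rw [pow_succ, pow_succ, pow_succ, pow_two]; rwa [one_mul] at this
  · have : (1 : Matrix.SpecialLinearGroup (Fin 2) (ZMod 5)) * c5 * c5 = 1 := e3
    rw [pow_two]; rwa [one_mul] at this
  · have : (1 : Matrix.SpecialLinearGroup (Fin 2) (ZMod 5)) * a5 * c5 = 1 * c5 * a5 := e4
    rwa [one_mul, one_mul] at this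
  · have : (1 : Matrix.SpecialLinearGroup (Fin 2) (ZMod 5)) * b5 * c5 = 1 * c5 * b5 := e5
    rwa [one_mul, one_mul] at this
  · have : (1 : Matrix.SpecialLinearGroup (Fin 2) (ZMod 5)) * a5 * b5 * a5 * b5 = 1 * c5 := e6
    rw [one_mul, one_mul] at this
    rw [pow_two, ← mul_assoc]; exact this

def f5 : PresentedGroup rels →* Matrix.SpecialLinearGroup (Fin 2) (ZMod 5) :=
  PresentedGroup.toGroup (lift_rels a5 b5 c5 rel5.1 rel5.2.1 rel5.2.2.1 rel5.2.2.2.1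
    rel5.2.2.2.2.1 rel5.2.2.2.2.2)

theorem f5_gP : ∀ i, f5 (gP i) = g5 i := by
  intro i
  match i with
  | 0 => exact PresentedGroup.toGroup.of _
  | 1 => exact PresentedGroup.toGroup.of _
  | 2 => exact PresentedGroup.toGroup.of _
  | (n + 3) => exact map_one f5

theorem nodup5 : (List.ofFn (fun j : Fin 120 => red 5 (evN 5 n5 (cert.wordAt j)))).Nodup := by
  decide +kernel

theorem card_SL25 : Nat.card (Matrix.SpecialLinearGroup (Fin 2) (ZMod 5)) = 120 := by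
  have : Fact (Nat.Prime 5) := ⟨by norm_num⟩
  rw [Cfsg.Agent.Lib.Helper15.card_SL2, ZMod.card]
  norm_num

theorem f5_surj : Function.Surjective f5 := by
  have hinj : Function.Injective (fun j : Fin 120 => ev g5 (cert.wordAt j)) :=
    ev_injective 5 g5 n5 g5_val _ nodup5
  have hbij := hinj.bijective_of_nat_card_le (by rw [card_SL25, Nat.card_fin])
  intro a
  obtain ⟨j, hj⟩ := hbij.2 a
  refine ⟨ev gP (cert.wordAt j), ?_⟩
  rw [map_ev, (funext f5_gP : (fun i => f5 (gP i)) = g5)]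
  exact hj

theorem f5_bijective : Function.Bijective f5 :=
  bijective_of_check gP cert cert_ok relP hg1 hgen f5 (by rw [cert_len, card_SL25]) f5_surj

/-- The presented group is isomorphic to `SL(2, 5)`. -/
noncomputable def equivSL25 : PresentedGroup rels ≃* Matrix.SpecialLinearGroup (Fin 2) (ZMod 5) :=
  MulEquiv.ofBijective f5 f5_bijective

/-! ### The embedding into `SL(2, 11)` -/

def n11 : ℕ → T4 := fun i =>
  match i with
  | 0 => (0, 1, 10, 10)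
  | 1 => (0, 2, 5, 3)
  | 2 => (10, 0, 0, 10)
  | _ => (1, 0, 0, 1)

def a11 : Matrix.SpecialLinearGroup (Fin 2) (ZMod 11) :=
  mkSL 11 (0, 1, 10, 10) (by rw [toM, Matrix.det_fin_two_of]; decide)

def b11 : Matrix.SpecialLinearGroup (Fin 2) (ZMod 11) :=
  mkSL 11 (0, 2, 5, 3) (by rw [toM, Matrix.det_fin_two_of]; decide)

def c11 : Matrix.SpecialLinearGroup (Fin 2) (ZMod 11) :=
  mkSL 11 (10, 0, 0, 10) (by rw [toM, Matrix.det_fin_two_of]; decide)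

def g11 : ℕ → Matrix.SpecialLinearGroup (Fin 2) (ZMod 11) := fun i =>
  match i with
  | 0 => a11
  | 1 => b11
  | 2 => c11
  | _ => 1

theorem g11_val : ∀ i, (g11 i).val = toM 11 (n11 i) := by
  intro i
  match i with
  | 0 => rfl
  | 1 => rfl
  | 2 => rfl
  | (n + 3) => exact (toM_one 11).symm

theorem rel11 : a11 ^ 3 = 1 ∧ b11 ^ 5 = 1 ∧ c11 ^ 2 = 1 ∧ a11 * c11 = c11 * a11 ∧
    b11 * c11 = c11 * b11 ∧ (a11 * b11) ^ 2 = c11 := by
  have e1 : ev g11 [0, 0, 0] = ev g11 [] := ev_eq_of_evN_eq 11 g11 n11 g11_val _ _ (by decide +kernel)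
  have e2 : ev g11 [1, 1, 1, 1, 1] = ev g11 [] :=
    ev_eq_of_evN_eq 11 g11 n11 g11_val _ _ (by decide +kernel)
  have e3 : ev g11 [2, 2] = ev g11 [] := ev_eq_of_evN_eq 11 g11 n11 g11_val _ _ (by decide +kernel)
  have e4 : ev g11 [0, 2] = ev g11 [2, 0] := ev_eq_of_evN_eq 11 g11 n11 g11_val _ _ (by decide +kernel)
  have e5 : ev g11 [1, 2] = ev g11 [2, 1] := ev_eq_of_evN_eq 11 g11 n11 g11_val _ _ (by decide +kernel)
  have e6 : ev g11 [0, 1, 0, 1] = ev g11 [2] :=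
    ev_eq_of_evN_eq 11 g11 n11 g11_val _ _ (by decide +kernel)
  refine ⟨?_, ?_, ?_, ?_, ?_, ?_⟩
  · have : (1 : Matrix.SpecialLinearGroup (Fin 2) (ZMod 11)) * a11 * a11 * a11 = 1 := e1
    rw [pow_succ, pow_two]; rwa [one_mul] at this
  · have : (1 : Matrix.SpecialLinearGroup (Fin 2) (ZMod 11)) * b11 * b11 * b11 * b11 * b11 = 1 := e2
    rw [pow_succ, pow_succ, pow_succ, pow_two]; rwa [one_mul] at this
  · have : (1 : Matrix.SpecialLinearGroup (Fin 2) (ZMod 11)) * c11 * c11 = 1 := e3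
    rw [pow_two]; rwa [one_mul] at this
  · have : (1 : Matrix.SpecialLinearGroup (Fin 2) (ZMod 11)) * a11 * c11 = 1 * c11 * a11 := e4
    rwa [one_mul, one_mul] at this
  · have : (1 : Matrix.SpecialLinearGroup (Fin 2) (ZMod 11)) * b11 * c11 = 1 * c11 * b11 := e5
    rwa [one_mul, one_mul] at this
  · have : (1 : Matrix.SpecialLinearGroup (Fin 2) (ZMod 11)) * a11 * b11 * a11 * b11 = 1 * c11 := e6
    rw [one_mul, one_mul] at this
    rw [pow_two, ← mul_assoc]; exact this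

def f11 : PresentedGroup rels →* Matrix.SpecialLinearGroup (Fin 2) (ZMod 11) :=
  PresentedGroup.toGroup (lift_rels a11 b11 c11 rel11.1 rel11.2.1 rel11.2.2.1 rel11.2.2.2.1
    rel11.2.2.2.2.1 rel11.2.2.2.2.2)

theorem f11_gP : ∀ i, f11 (gP i) = g11 i := by
  intro i
  match i with
  | 0 => exact PresentedGroup.toGroup.of _
  | 1 => exact PresentedGroup.toGroup.of _
  | 2 => exact PresentedGroup.toGroup.of _
  | (n + 3) => exact map_one f11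

theorem trace11 : ∀ j : Fin 120, j ≠ 0 →
    ((evN 11 n11 (cert.wordAt j)).1 + (evN 11 n11 (cert.wordAt j)).2.2.2) % 11 ≠ 2 := by
  decide +kernel

/-- Non-identity elements of the presented group map to matrices of trace different from `2`. -/
theorem f11_trace (p : PresentedGroup rels) (hp : p ≠ 1) :
    (f11 p).val 0 0 + (f11 p).val 1 1 ≠ 2 := by
  obtain ⟨j, rfl⟩ := exists_word_P p
  have hj : j ≠ 0 := by
    rintro rfl
    exact hp rfl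
  rw [map_ev, (funext f11_gP : (fun i => f11 (gP i)) = g11), ev_val 11 g11 n11 g11_val]
  have h1 := trace11 j hj
  intro h2
  apply h1
  have h3 : (((evN 11 n11 (cert.wordAt j)).1 + (evN 11 n11 (cert.wordAt j)).2.2.2 : ℕ) : ZMod 11) =
      ((2 : ℕ) : ZMod 11) := by
    rw [Nat.cast_add]
    exact h2
  exact (ZMod.natCast_eq_natCast_iff' _ _ _).mp h3

end Cfsg.Agent.Lib.Helper20.SL25
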